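import Cfsg.Agent.H63.EightTwo
import Cfsg.Agent.S2098

/-!
# The three perfect double covers of `O8+(2)` are isomorphic
-/

set_option autoImplicit false

namespace Cfsg.Agent.H881.DM

open Cfsg.Agent.OddHalf.D9.EEight.Id.Main
open Cfsg.Agent.OddHalf.D9.EEight.Id.ModTwo (Q good)
open Cfsg.Agent.KFacts.OddLift.Basic (Cov)

universe u v

theorem iso_K {G : Type u} [Group G] [Finite G] (hG : Cfsg.IsQuasisimple G)
    {F : Type} [Field F] [Fintype F] (hF : Fintype.card F = 2)
    (e : G ⧸ Subgroup.center G ≃* Cfsg.POmega F (Cfsg.quadFormPlus 4 F))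
    (c : Nat.card (Subgroup.center G) = 2) : Nonempty (G ≃* ↥Cfsg.Agent.OddHalf.D9.EEight.K₀) := by
  have hZ : Fintype.card (ZMod 2) = 2 := ZMod.card 2
  obtain ⟨e1⟩ := Cfsg.Agent.UGT.U2.Rec.Congr.nonempty_POmega _
    (Cfsg.Agent.S2098.plus_map (FiniteField.ringEquivOfCardEq (hF.trans hZ.symm)) 4)
  obtain ⟨e2⟩ := Cfsg.Agent.H63.EightTwo.exists_equiv
  let E : G ⧸ Subgroup.center G ≃* Cfsg.Agent.ClassicalGeometry.OrthAut1.P Q := e.trans (e1.trans e2)
  let π : G →* Cfsg.Agent.ClassicalGeometry.OrthAut1.P Q := E.toMonoidHom.comp (QuotientGroup.mk' (Subgroup.center G))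
  have hker : π.ker = Subgroup.center G := by
    ext x
    rw [MonoidHom.mem_ker]
    show E (QuotientGroup.mk' (Subgroup.center G) x) = 1 ↔ _
    rw [map_eq_one_iff E E.injective]
    exact QuotientGroup.eq_one_iff x
  have hcyc : IsCyclic π.ker := by
    have : Fact (Nat.Prime 2) := ⟨Nat.prime_two⟩
    exact isCyclic_of_prime_card (p := 2) (by rw [hker]; exact c)
  have hcov : Cov π := by
    refine ⟨E.surjective.comp (QuotientGroup.mk'_surjective _), hker.le, ?_, hG.1.commutator_eq_top⟩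
    rw [hker]
    exact IsPGroup.of_card (n := 1) (by rw [c, pow_one])
  refine exists_iso hcov ?_ hcyc
  intro h
  rw [hker] at h
  rw [h, Subgroup.card_bot] at c
  exact absurd c (by norm_num)

/-- **DM25**: the three perfect double covers of `O8+(2)` are isomorphic. -/
theorem o8_double {G : Type u} {H : Type v} [Group G] [Finite G] [Group H] [Finite H]
    (hG : Cfsg.IsQuasisimple G) (hH : Cfsg.IsQuasisimple H) {F : Type} [Field F] [Fintype F]
    (hF : Fintype.card F = 2)
    (eG : G ⧸ Subgroup.center G ≃* Cfsg.POmega F (Cfsg.quadFormPlus 4 F))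
    (eH : H ⧸ Subgroup.center H ≃* Cfsg.POmega F (Cfsg.quadFormPlus 4 F))
    (cG : Nat.card (Subgroup.center G) = 2) (cH : Nat.card (Subgroup.center H) = 2) :
    Nonempty (G ≃* H) := by
  obtain ⟨a⟩ := iso_K hG hF eG cG
  obtain ⟨b⟩ := iso_K hH hF eH cH
  exact ⟨a.trans b.symm⟩

end Cfsg.Agent.H881.DM
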