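import Cfsg.Agent.H881.DM.Abel
import Cfsg.Agent.S2091
import Cfsg.Prelude.Def_CaseTheorems

/-!
# Perfect central extensions of `U6(2)` with kernels of order 2 (or 6) are isomorphic groups
-/

set_option autoImplicit false

namespace Cfsg.Agent.H881.DM

open Cfsg.Agent.H487 Function Cfsg
open Cfsg.Agent.H133.USixTwo (dlt)
open Cfsg.Agent.KFacts.MulDef

universe u v w

section

variable {F : Type w} [Field F] [Fintype F] (hF : Fintype.card F = 4)

include hF

theorem perf_psu : Group.IsPerfect (PSU 6 F 2) :=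
  ⟨(Cfsg.Agent.H133.USixMult.pce_pr (F := F) (by rw [hF]; norm_num)).1.perf_base⟩

theorem six_ker : Six (prU (PSU 6 F 2)).ker := by
  obtain ⟨e1⟩ := nonempty_prU_ker (PSU 6 F 2)
  obtain ⟨e2⟩ := nonempty_mulEquiv_MM (Cfsg.Agent.S2091.result hF)
  exact six_model.congr (e1.trans e2.symm)

/-- no fixed involution -/
theorem no_fix {ω : F} (hω : ω ^ 2 + ω + 1 = 0) (h0 : ω ≠ 0) (h3 : ω ^ 3 = 1)
    (a : UU (PSU 6 F 2) ≃* UU (PSU 6 F 2))
    (ha : ∀ x, prU (PSU 6 F 2) (a x) = (dlt ω h0 h3).symm (prU (PSU 6 F 2) x))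
    (t : UU (PSU 6 F 2)) (ht : t ∈ (prU (PSU 6 F 2)).ker) (ht2 : t * t = 1) (ht1 : t ≠ 1) : a t ≠ t := by
  intro hat
  have hA := six_ker hF
  have hS := perf_psu hF
  have hcen := prU_ker_central (PSU 6 F 2)
  set q := prU (PSU 6 F 2) with hq
  have hmulA : ∀ x ∈ q.ker, ∀ y : UU (PSU 6 F 2), y * x = x * y := fun x hx y =>
    Subgroup.mem_center_iff.1 (hcen hx) y
  let X : Subgroup (UU (PSU 6 F 2)) :=
    { carrier := {x | x ∈ q.ker ∧ (x ^ 3 = 1 ∨ x ^ 3 = t)}
      one_mem' := ⟨one_mem _, Or.inl (one_pow 3)⟩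
      mul_mem' := by
        rintro x y ⟨hx, hx3⟩ ⟨hy, hy3⟩
        refine ⟨mul_mem hx hy, ?_⟩
        have hc : Commute x y := hmulA y hy x
        rw [hc.mul_pow]
        rcases hx3 with h | h <;> rcases hy3 with h' | h' <;> rw [h, h']
        · left; exact one_mul 1
        · right; exact one_mul t
        · right; exact mul_one t
        · left; exact ht2
      inv_mem' := by
        rintro x ⟨hx, hx3⟩
        refine ⟨inv_mem hx, ?_⟩
        rw [inv_pow]
        rcases hx3 with h | h <;> rw [h]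
        · left; exact inv_one
        · right; exact inv_eq_of_mul_eq_one_left ht2 }
  have hXA : X ≤ q.ker := fun x hx => hx.1
  have hXc : X ≤ Subgroup.center (UU (PSU 6 F 2)) := hXA.trans hcen
  have hXn : X.Normal := normal_of_le_center hXc
  obtain ⟨⟨s, hsA⟩, hs2, hs1, hst⟩ := hA.ex ⟨t, ht⟩ (Subtype.ext ht2) (fun h => ht1 (congrArg Subtype.val h))
  have hs2' : s * s = 1 := congrArg Subtype.val hs2
  have hs1' : s ≠ 1 := fun h => hs1 (Subtype.ext h)
  have hst' : s ≠ t := fun h => hst (Subtype.ext h)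
  have hs3 : s ^ 3 = s := by rw [pow_succ, pow_two, hs2', one_mul]
  have hsX : s ∉ X := by
    rintro ⟨-, h⟩
    rw [hs3] at h
    exact h.elim hs1' hst'
  have htX : t ∈ X := by
    refine ⟨ht, Or.inr ?_⟩
    rw [pow_succ, pow_two, ht2, one_mul]
  -- the double cover
  let π : (UU (PSU 6 F 2) ⧸ X) →* PSU 6 F 2 := QuotientGroup.lift X q hXA
  have hU : commutator (UU (PSU 6 F 2)) = ⊤ := (isPerfect_UU hS).commutator_eq_top
  have hD : Dbl π (s : UU (PSU 6 F 2) ⧸ X) := by
    refine ⟨⟨?_, ?_, ?_, ?_⟩, ?_, ?_⟩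
    · intro h
      exact hsX ((QuotientGroup.eq_one_iff s).1 h)
    · rw [← QuotientGroup.mk_mul, hs2', QuotientGroup.mk_one]
    · intro x
      induction x using QuotientGroup.induction_on with
      | H x =>
        rw [← QuotientGroup.mk_mul, ← QuotientGroup.mk_mul, hmulA s hsA x]
    · exact commutator_top_of_surj (QuotientGroup.mk' X) (QuotientGroup.mk'_surjective X) hU
    · intro y
      obtain ⟨x, rfl⟩ := prU_surjective hS y
      exact ⟨(x : UU (PSU 6 F 2) ⧸ X), rfl⟩
    · intro x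
      induction x using QuotientGroup.induction_on with
      | H x =>
        show q x = 1 ↔ _
        constructor
        · intro hx
          by_cases h1 : x ∈ X
          · exact Or.inl ((QuotientGroup.eq_one_iff x).2 h1)
          · right
            rw [QuotientGroup.eq]
            refine ⟨mul_mem (inv_mem hx) hsA, ?_⟩
            have hx' : (⟨x, hx⟩ : q.ker) ^ 6 = 1 := hA.six _
            have hx6 : x ^ 3 * x ^ 3 = 1 := by rw [← pow_add]; exact congrArg Subtype.val hx'
            have hx1 : x ^ 3 ≠ 1 := fun h => h1 ⟨hx, Or.inl h⟩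
            have hxt : x ^ 3 ≠ t := fun h => h1 ⟨hx, Or.inr h⟩
            have hc : Commute x⁻¹ s := (hmulA s hsA x⁻¹)
            rw [hc.mul_pow, hs3, inv_pow, inv_eq_of_mul_eq_one_left hx6]
            have hx3A : x ^ 3 ∈ q.ker := pow_mem hx 3
            rcases hA.inv ⟨s, hsA⟩ ⟨t, ht⟩ ⟨x ^ 3, hx3A⟩ hst hs2 (Subtype.ext ht2) (Subtype.ext hx6) hs1
              (fun h => ht1 (congrArg Subtype.val h)) (fun h => hx1 (congrArg Subtype.val h)) with h | h | h
            · left
              have h' : x ^ 3 = s := congrArg Subtype.val h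
              rw [h', hs2']
            · exact absurd (congrArg Subtype.val h) hxt
            · right
              have h' : x ^ 3 = s * t := congrArg Subtype.val h
              rw [h', mul_assoc, ← hmulA t ht s, ← mul_assoc, hs2', one_mul]
        · rintro (h | h)
          · exact hXA ((QuotientGroup.eq_one_iff x).1 h)
          · have h1 := hXA (QuotientGroup.eq.1 h)
            have h2 : q (x⁻¹ * s) = 1 := h1
            rw [map_mul, map_inv, MonoidHom.mem_ker.1 hsA, mul_one, inv_eq_one] at h2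
            exact h2
  have haq : ∀ x, x ∈ q.ker ↔ a x ∈ q.ker := by
    intro x
    rw [MonoidHom.mem_ker, MonoidHom.mem_ker, ha, map_eq_one_iff _ (MulEquiv.injective _)]
  have haX : X.map a.toMonoidHom = X := by
    have hiff : ∀ x, x ∈ X ↔ a x ∈ X := by
      intro x
      constructor
      · rintro ⟨hx, hx3⟩
        refine ⟨(haq x).1 hx, ?_⟩
        rw [← map_pow]
        rcases hx3 with h | h <;> rw [h]
        · left; exact map_one a
        · right; exact hat
      · rintro ⟨hx, hx3⟩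
        refine ⟨(haq x).2 hx, ?_⟩
        rw [← map_pow] at hx3
        rcases hx3 with h | h
        · left; exact a.injective (h.trans (map_one a).symm)
        · right; exact a.injective (h.trans hat.symm)
    ext y
    constructor
    · rintro ⟨x, hx, rfl⟩
      exact (hiff x).1 hx
    · intro hy
      refine ⟨a.symm y, (hiff _).2 ?_, a.apply_symm_apply y⟩
      rw [a.apply_symm_apply]; exact hy
  refine Cfsg.Agent.H133.USixTwo.no_iso (by rw [hF]; norm_num) hD hω h0 h3 ⟨QuotientGroup.congr X X a haX, ?_⟩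
  intro x
  induction x using QuotientGroup.induction_on with
  | H x =>
    show dlt ω h0 h3 (q (a x)) = q x
    rw [ha, MulEquiv.apply_symm_apply]

/-- a quasisimple cover of `U6(2)` with centre of order 2 or 6 -/
theorem exists_inv {G : Type u} [Group G] [Finite G] (hG : Cfsg.IsQuasisimple G)
    (e : G ⧸ Subgroup.center G ≃* PSU 6 F 2)
    (h : Nat.card (Subgroup.center G) = 2 ∨ Nat.card (Subgroup.center G) = 6) :
    ∃ (f : UU (PSU 6 F 2) →* G) (t : (prU (PSU 6 F 2)).ker), Surjective f ∧ t * t = 1 ∧ t ≠ 1 ∧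
      ∀ x, f x = 1 ↔ ∃ hx : x ∈ (prU (PSU 6 F 2)).ker,
        (⟨x, hx⟩ : (prU (PSU 6 F 2)).ker) ^ (if Nat.card (Subgroup.center G) = 6 then 1 else 3) = 1 ∨
        (⟨x, hx⟩ : (prU (PSU 6 F 2)).ker) ^ (if Nat.card (Subgroup.center G) = 6 then 1 else 3) = t := by
  have hS := perf_psu hF
  have hA := six_ker hF
  let π : G →* PSU 6 F 2 := e.toMonoidHom.comp (QuotientGroup.mk' (Subgroup.center G))
  have hker : π.ker = Subgroup.center G := by
    ext x
    rw [MonoidHom.mem_ker]
    show e (QuotientGroup.mk' (Subgroup.center G) x) = 1 ↔ _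
    rw [map_eq_one_iff e e.injective]
    exact QuotientGroup.eq_one_iff x
  obtain ⟨f, hf, hfq⟩ := exists_quot hS hG.1 (π := π) (e.surjective.comp (QuotientGroup.mk'_surjective _)) hker.le
  have hc := card_ker hf hfq
  rw [hker, hA.card] at hc
  have hle := ker_le hfq
  let X : Subgroup (prU (PSU 6 F 2)).ker := f.ker.subgroupOf (prU (PSU 6 F 2)).ker
  have hX : Nat.card X = Nat.card f.ker := Nat.card_congr (Subgroup.subgroupOfEquivOfLe hle).toEquiv
  have hmem : ∀ x, f x = 1 ↔ ∃ hx : x ∈ (prU (PSU 6 F 2)).ker, (⟨x, hx⟩ : (prU (PSU 6 F 2)).ker) ∈ X := by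
    intro x
    constructor
    · intro hx
      exact ⟨hle hx, hx⟩
    · rintro ⟨_, hx⟩
      exact hx
  rcases h with h | h
  · rw [h] at hc
    obtain ⟨t, h1, h2, h3⟩ := hA.sixth (X := X) (by rw [hX]; omega)
    refine ⟨f, t, hf, h1, h2, fun x => ?_⟩
    rw [hmem, h]
    exact exists_congr fun hx => h3 _
  · rw [h] at hc
    obtain ⟨t, h1, h2, h3⟩ := Six.two (X := X) (by rw [hX]; omega)
    refine ⟨f, t, hf, h1, h2, fun x => ?_⟩
    rw [hmem, h]
    exact exists_congr fun hx => by rw [if_pos rfl, pow_one]; exact h3 _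

/-- **DM27**: quasisimple covers of `U6(2)` with centres of the same order 2 or 6 are isomorphic. -/
theorem u6_double {G : Type u} {H : Type v} [Group G] [Finite G] [Group H] [Finite H]
    (hG : Cfsg.IsQuasisimple G) (hH : Cfsg.IsQuasisimple H)
    (eG : G ⧸ Subgroup.center G ≃* PSU 6 F 2) (eH : H ⧸ Subgroup.center H ≃* PSU 6 F 2)
    (c : Nat.card (Subgroup.center G) = Nat.card (Subgroup.center H))
    (h : Nat.card (Subgroup.center G) = 2 ∨ Nat.card (Subgroup.center G) = 6) : Nonempty (G ≃* H) := by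
  have hS := perf_psu hF
  have hA := six_ker hF
  have h' : Nat.card (Subgroup.center H) = 2 ∨ Nat.card (Subgroup.center H) = 6 := by rw [← c]; exact h
  obtain ⟨f, t, hf, ht2, ht1, hft⟩ := exists_inv hF hG eG h
  obtain ⟨g, r, hg, hr2, hr1, hgr⟩ := exists_inv hF hH eH h'
  rw [← c] at hgr
  set n : ℕ := if Nat.card (Subgroup.center G) = 6 then 1 else 3
  have hF' : Fintype.card F = 2 ^ 2 := by rw [hF]; norm_num
  obtain ⟨ω, hω⟩ := Cfsg.Agent.SporadicStructure.UnitTwo.exists_omega hF'
  have h0 := Cfsg.Agent.KFacts.OddLift.USixL.omega_ne_zero hω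
  have h3 : ω ^ 3 = 1 := by linear_combination (ω - 1) * hω
  obtain ⟨a, ha⟩ := exists_lift_aut hS (dlt ω h0 h3).symm
  have haq : ∀ x, x ∈ (prU (PSU 6 F 2)).ker ↔ a x ∈ (prU (PSU 6 F 2)).ker := by
    intro x
    rw [MonoidHom.mem_ker, MonoidHom.mem_ker, ha, map_eq_one_iff _ (MulEquiv.injective _)]
  -- the restriction
  let b : (prU (PSU 6 F 2)).ker →* (prU (PSU 6 F 2)).ker :=
    { toFun := fun x => ⟨a x, (haq x).1 x.2⟩
      map_one' := Subtype.ext (map_one a)
      map_mul' := fun x y => Subtype.ext (map_mul a _ _) }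
  have hb : Injective b := fun x y hxy => Subtype.ext (a.injective (congrArg Subtype.val hxy))
  have hfix : ∀ t : (prU (PSU 6 F 2)).ker, t * t = 1 → t ≠ 1 → b t ≠ t := by
    intro t ht ht1 hbt
    exact no_fix hF hω h0 h3 a ha t t.2 (congrArg Subtype.val ht) (fun h => ht1 (Subtype.ext h))
      (congrArg Subtype.val hbt)
  -- an automorphism of `U` that maps `t` to `r`
  have key : ∃ (d : UU (PSU 6 F 2) ≃* UU (PSU 6 F 2)), (∀ x, x ∈ (prU (PSU 6 F 2)).ker ↔ d x ∈ (prU (PSU 6 F 2)).ker) ∧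
      d t = r := by
    rcases hA.trans b hb hfix ht2 ht1 hr2 hr1 with h | h | h
    · exact ⟨MulEquiv.refl _, fun x => Iff.rfl, congrArg Subtype.val h.symm⟩
    · exact ⟨a, haq, congrArg Subtype.val h.symm⟩
    · exact ⟨a.trans a, fun x => (haq x).trans (haq _), congrArg Subtype.val h.symm⟩
  obtain ⟨d, hd, hdt⟩ := key
  refine equiv_of_map hf hg d (fun x => ?_)
  rw [hft, hgr]
  have hpow : ∀ (y : UU (PSU 6 F 2)) (hy : y ∈ (prU (PSU 6 F 2)).ker) (z : (prU (PSU 6 F 2)).ker),
      (⟨y, hy⟩ : (prU (PSU 6 F 2)).ker) ^ n = z ↔ y ^ n = z := by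
    intro y hy z
    constructor
    · intro h; exact congrArg Subtype.val h
    · intro h; exact Subtype.ext h
  constructor
  · rintro ⟨hx, hx3⟩
    refine ⟨(hd x).1 hx, ?_⟩
    rw [hpow, hpow] at hx3
    rw [hpow, hpow, ← map_pow]
    rcases hx3 with h | h <;> rw [h]
    · left; exact map_one d
    · right; exact hdt
  · rintro ⟨hx, hx3⟩
    refine ⟨(hd x).2 hx, ?_⟩
    rw [hpow, hpow, ← map_pow] at hx3
    rw [hpow, hpow]
    rcases hx3 with h | h
    · left; exact d.injective (h.trans (map_one d).symm)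
    · right; exact d.injective (h.trans hdt.symm)

end

end Cfsg.Agent.H881.DM
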